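import Cfsg.Prelude.Def_FischerSpaces

set_option autoImplicit false

namespace Cfsg.Lib.Fischer

open Cfsg Cfsg.LineSystem

variable {X : Type*} {L : Set (Set X)}

/-- A model plane with its third-point operation. -/
structure ThirdPointOp {P : Type*} (M : Set (Set P)) (τ : P → P → P) : Prop where
  on_line : ∀ m ∈ M, ∀ p ∈ m, ∀ q ∈ m, p ≠ q → τ p q ∈ m ∧ τ p q ≠ p ∧ τ p q ≠ q
  off_line : ∀ p q, (∀ m ∈ M, p ∈ m → q ∉ m) → τ p q = q
  image_mem : ∀ p, ∀ m ∈ M, τ p '' m ∈ M
  self : ∀ p, τ p p = p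

theorem isSubspace_span (S : Set X) : IsSubspace L (span L S) := by
  intro l hl x hx y hy hne hxl hyl z hz
  refine Set.mem_sInter.2 fun T hT => hT.2 l hl x (Set.mem_sInter.1 hx T hT) y (Set.mem_sInter.1 hy T hT) hne hxl hyl hz

theorem subset_span (S : Set X) : S ⊆ span L S :=
  fun _ hx => Set.mem_sInter.2 fun _ hT => hT.1 hx

theorem lineMap_of_line (hP : IsPartialLinear L) (h3 : ∀ l ∈ L, l.ncard = 3) {l : Set X} (hl : l ∈ L)
    {x y z : X} (hx : x ∈ l) (hy : y ∈ l) (hz : z ∈ l) (hxy : x ≠ y) (hzx : z ≠ x) (hzy : z ≠ y) :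
    lineMap L x y = z := by
  have hsub : ({x, y, z} : Set X) ⊆ l := by simp [Set.insert_subset_iff, hx, hy, hz]
  have hfin : l.Finite := Set.finite_of_ncard_ne_zero (by rw [h3 l hl]; omega)
  have hcard : ({x, y, z} : Set X).ncard = 3 := Set.ncard_eq_three.2 ⟨x, y, z, hxy, hzx.symm, hzy.symm, rfl⟩
  have heq : ({x, y, z} : Set X) = l := Set.eq_of_subset_of_ncard_le hsub (by rw [hcard, h3 l hl]) hfin
  have hex : ∃ z : X, z ≠ x ∧ z ≠ y ∧ x ≠ y ∧ ({x, y, z} : Set X) ∈ L := ⟨z, hzx, hzy, hxy, heq ▸ hl⟩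
  simp only [lineMap, dif_pos hex]
  obtain ⟨a, b, -, d⟩ := hex.choose_spec
  have := hP _ d _ hl x y hxy (by simp) (by simp) hx hy
  have hw : hex.choose ∈ l := this ▸ by simp
  rw [← heq] at hw
  simpa [a, b] using hw

theorem lineMap_of_not {x y : X} (h : ¬ Collinear L x y) : lineMap L x y = y := by
  refine dif_neg ?_
  rintro ⟨z, -, -, hne, hl⟩
  exact h ⟨hne, _, hl, by simp, by simp⟩

theorem exists_third (h3 : ∀ l ∈ L, l.ncard = 3) {l : Set X} (hl : l ∈ L) (x y : X) :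
    ∃ z ∈ l, z ≠ x ∧ z ≠ y := by
  by_contra! h
  have : l ⊆ {x, y} := fun z hz => by
    by_cases hzx : z = x
    · simp [hzx]
    · simp [h z hz hzx]
  have h1 := Set.ncard_le_ncard this (Set.toFinite _)
  have h2 := Set.ncard_insert_le x ({y} : Set X)
  simp [h3 l hl, Set.ncard_singleton] at h1 h2
  omega

theorem lineMap_line (hP : IsPartialLinear L) (h3 : ∀ l ∈ L, l.ncard = 3) {l : Set X} (hl : l ∈ L)
    {x y : X} (hx : x ∈ l) (hy : y ∈ l) (hxy : x ≠ y) :
    lineMap L x y ∈ l ∧ lineMap L x y ≠ x ∧ lineMap L x y ≠ y := by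
  obtain ⟨z, hz, h1, h2⟩ := exists_third h3 hl x y
  rw [lineMap_of_line hP h3 hl hx hy hz hxy h1 h2]
  exact ⟨hz, h1, h2⟩

theorem lineMap_involutive (hP : IsPartialLinear L) (h3 : ∀ l ∈ L, l.ncard = 3) (x : X) :
    Function.Involutive (lineMap L x) := by
  intro y
  by_cases h : Collinear L x y
  · obtain ⟨hne, l, hl, hx, hy⟩ := h
    obtain ⟨hz, h1, h2⟩ := lineMap_line hP h3 hl hx hy hne
    exact lineMap_of_line hP h3 hl hx hz hy h1.symm hne.symm h2.symm
  · rw [lineMap_of_not h, lineMap_of_not h]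

theorem lineMap_self (x : X) : lineMap L x x = x := lineMap_of_not fun h => h.1 rfl

theorem image_mem_of_model {P : Type*} {M : Set (Set P)} {τ : P → P → P} (hτ : ThirdPointOp M τ)
    (hP : IsPartialLinear L) (h3 : ∀ l ∈ L, l.ncard = 3) {S : Set X} (hS : IsSubspace L S)
    (hiso : Isomorphic (restrict L S) M) {x : X} (hx : x ∈ S) {l : Set X} (hl : l ∈ L) (hlS : l ⊆ S) :
    lineMap L x '' l ∈ L := by
  obtain ⟨e, he⟩ := hiso
  have key : ∀ v : S, τ (e ⟨x, hx⟩) (e v) =
      e ⟨lineMap L x v, by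
        by_cases h : Collinear L x v
        · obtain ⟨hne, k, hk, hxk, hvk⟩ := h
          exact hS k hk x hx v v.2 hne hxk hvk (lineMap_line hP h3 hk hxk hvk hne).1
        · rw [lineMap_of_not h]; exact v.2⟩ := by
    intro v
    by_cases h : Collinear L x v
    · obtain ⟨hne, k, hk, hxk, hvk⟩ := h
      have hkS : k ⊆ S := hS k hk x hx v v.2 hne hxk hvk
      have hm : e '' {u : S | (u : X) ∈ k} ∈ M := (he _).1 ⟨k, hk, hkS, rfl⟩
      obtain ⟨hmem, h1, h2⟩ := hτ.on_line _ hm (e ⟨x, hx⟩) ⟨⟨x, hx⟩, hxk, rfl⟩ (e v) ⟨v, hvk, rfl⟩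
        (fun h' => hne (congrArg Subtype.val (e.injective h')))
      obtain ⟨u, hu, hue⟩ := hmem
      rw [← hue] at h1 h2 ⊢
      refine congrArg e (Subtype.ext ?_)
      refine (lineMap_of_line hP h3 hk hxk hvk hu hne ?_ ?_).symm
      · exact fun h' => h1 (congrArg e (Subtype.ext h'))
      · exact fun h' => h2 (congrArg e (Subtype.ext h'))
    · have hfix : lineMap L x v = v := lineMap_of_not h
      simp only [hfix, Subtype.coe_eta]
      by_cases hxv : (⟨x, hx⟩ : S) = v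
      · subst hxv; exact hτ.self _
      refine hτ.off_line _ _ fun m hm hxm hvm => h ⟨fun h' => hxv (Subtype.ext h'), ?_⟩
      have : e.symm '' m ∈ restrict L S := by
        rw [he, Equiv.image_symm_image]; exact hm
      obtain ⟨k, hk, hkS, hke⟩ := this
      have h1 : (⟨x, hx⟩ : S) ∈ e.symm '' m := ⟨_, hxm, e.symm_apply_apply _⟩
      have h2 : v ∈ e.symm '' m := ⟨_, hvm, e.symm_apply_apply _⟩
      rw [hke] at h1 h2
      exact ⟨k, hk, h1, h2⟩
  have hm : e '' {u : S | (u : X) ∈ l} ∈ M := (he _).1 ⟨l, hl, hlS, rfl⟩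
  have hm' := hτ.image_mem (e ⟨x, hx⟩) _ hm
  have : e.symm '' (τ (e ⟨x, hx⟩) '' (e '' {u : S | (u : X) ∈ l})) ∈ restrict L S := by
    rw [he, Equiv.image_symm_image]; exact hm'
  obtain ⟨k, hk, hkS, hke⟩ := this
  convert hk using 1
  have hke' := congrArg (Set.image (Subtype.val : S → X)) hke
  simp only [Set.image_image, key, Equiv.symm_apply_apply] at hke'
  ext z
  constructor
  · rintro ⟨y, hy, rfl⟩
    have : lineMap L x y ∈ (Subtype.val '' {u : S | (u : X) ∈ k}) := by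
      rw [← hke']; exact ⟨⟨y, hlS hy⟩, hy, rfl⟩
    obtain ⟨u, hu, hue⟩ := this
    exact hue ▸ hu
  · intro hz
    have : z ∈ (Subtype.val '' {u : S | (u : X) ∈ k}) := ⟨⟨z, hkS hz⟩, hz, rfl⟩
    rw [← hke'] at this
    obtain ⟨u, hu, hue⟩ := this
    exact ⟨u, hu, hue⟩

/-- Third point in the dual affine plane of order two. -/
def dualThird (p q : DualAffinePoint) : DualAffinePoint :=
  if h : (symmDiff p.val q.val).card = 2 then ⟨symmDiff p.val q.val, h⟩ else q

/-- Third point in the affine plane of order three. -/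
def affThird (p q : Fin 2 → ZMod 3) : Fin 2 → ZMod 3 := -p - q

theorem dual_facts_line : ∀ i : Fin 4, ∀ p q : DualAffinePoint, i ∉ p.val ∧ i ∉ q.val ∧ p ≠ q →
    i ∉ (dualThird p q).val ∧ dualThird p q ≠ p ∧ dualThird p q ≠ q := by decide +kernel

theorem dual_facts_off : ∀ p q : DualAffinePoint, (∀ i : Fin 4, i ∈ p.val ∨ i ∈ q.val) → dualThird p q = q := by
  decide +kernel

theorem dual_facts_image : ∀ p : DualAffinePoint, ∀ i : Fin 4, ∃ j : Fin 4, ∀ s : DualAffinePoint,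
    (j ∉ s.val ↔ i ∉ (dualThird p s).val) := by decide +kernel

theorem dual_facts_inv : ∀ p s : DualAffinePoint, dualThird p (dualThird p s) = s := by decide +kernel

theorem dual_facts_self : ∀ p : DualAffinePoint, dualThird p p = p := by decide +kernel

theorem dualThird_op : ThirdPointOp dualAffinePlaneTwo dualThird := by
  refine ⟨?_, ?_, ?_, dual_facts_self⟩
  · rintro m ⟨i, rfl⟩ p hp q hq hne
    exact dual_facts_line i p q ⟨hp, hq, hne⟩
  · intro p q h
    refine dual_facts_off p q fun i => ?_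
    by_contra! hh
    exact h _ ⟨i, rfl⟩ hh.1 hh.2
  · rintro p m ⟨i, rfl⟩
    obtain ⟨j, hj⟩ := dual_facts_image p i
    refine ⟨j, ?_⟩
    ext s
    constructor
    · rintro ⟨u, hu, rfl⟩
      exact (hj _).2 (by rw [dual_facts_inv]; exact hu)
    · intro hs
      exact ⟨dualThird p s, (hj s).1 hs, dual_facts_inv p s⟩

theorem affThird_op : ThirdPointOp affinePlaneThree affThird := by
  have h3 : (3 : ZMod 3) = 0 := by decide
  refine ⟨?_, ?_, ?_, fun p => funext fun i => by simp [affThird]; linear_combination (-(p i)) * h3⟩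
  · rintro m ⟨v, w, hw, rfl⟩ p ⟨c, rfl⟩ q ⟨d, rfl⟩ hne
    refine ⟨⟨-c - d, ?_⟩, ?_, ?_⟩
    · funext i; simp [affThird]; linear_combination (-(v i)) * h3
    · intro h; apply hne; funext i
      have := congrFun h i
      simp only [affThird, Pi.add_apply, Pi.smul_apply, Pi.sub_apply, Pi.neg_apply, smul_eq_mul] at this ⊢
      linear_combination this + (v i + c * w i) * h3
    · intro h; apply hne; funext i
      have := congrFun h i
      simp only [affThird, Pi.add_apply, Pi.smul_apply, Pi.sub_apply, Pi.neg_apply, smul_eq_mul] at this ⊢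
      linear_combination -this - (v i + d * w i) * h3
  · intro p q h
    by_cases hpq : p = q
    · subst hpq; funext i; simp [affThird]; linear_combination (-(p i)) * h3
    · exact absurd (⟨1, by simp⟩ : q ∈ {x | ∃ c : ZMod 3, x = p + c • (q - p)})
        (h _ ⟨p, q - p, sub_ne_zero.2 (Ne.symm hpq), rfl⟩ ⟨0, by simp⟩)
  · rintro p m ⟨v, w, hw, rfl⟩
    refine ⟨-p - v, -w, neg_ne_zero.2 hw, ?_⟩
    ext z
    constructor
    · rintro ⟨u, ⟨c, rfl⟩, rfl⟩
      exact ⟨c, by funext i; simp [affThird]; ring⟩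
    · rintro ⟨c, rfl⟩
      exact ⟨v + c • w, ⟨c, rfl⟩, by funext i; simp [affThird]; ring⟩

end Cfsg.Lib.Fischer
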